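import Mathlib
import Cfsg.Agent.Lib.LyDce.McDefs
import Cfsg.Agent.TcData.Ly.Mc.Om
import Cfsg.Agent.TcData.Ly.Mc.Pt
import Cfsg.Agent.TcData.Ly.Mc.DT
import Cfsg.Agent.TcData.Ly.Mc.Comm
import Cfsg.Agent.Lib.McLFusData

set_option autoImplicit false
set_option Elab.async false
set_option maxRecDepth 100000
set_option linter.all false
set_option maxHeartbeats 0

namespace Cfsg.Agent.TcData.Ly.Mc

open Cfsg.Agent.Lib.TcFacts Cfsg.Agent.Lib.LyDce Cfsg.Agent.Lib.VecOrb Cfsg.Agent.TcData.Ly.Syl.McN Cfsg.Agent.Lib.McLFusData

/-- The vectors are reduced and increase. -/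
noncomputable def FO : ℕ → Bool := rowO om 7128
theorem RO_b0 : allR FO 8 0 = true := by decide +kernel

theorem RO_b1 : allR FO 8 256 = true := by decide +kernel

theorem RO_b2 : allR FO 8 512 = true := by decide +kernel

theorem RO_b3 : allR FO 8 768 = true := by decide +kernel

theorem RO_b4 : allR FO 8 1024 = true := by decide +kernel

theorem RO_b5 : allR FO 8 1280 = true := by decide +kernel

theorem RO_b6 : allR FO 8 1536 = true := by decide +kernel

theorem RO_b7 : allR FO 8 1792 = true := by decide +kernel

theorem RO_b8 : allR FO 8 2048 = true := by decide +kernel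

theorem RO_b9 : allR FO 8 2304 = true := by decide +kernel

theorem RO_b10 : allR FO 8 2560 = true := by decide +kernel

theorem RO_b11 : allR FO 8 2816 = true := by decide +kernel

theorem RO_b12 : allR FO 8 3072 = true := by decide +kernel

theorem RO_b13 : allR FO 8 3328 = true := by decide +kernel

theorem RO_b14 : allR FO 8 3584 = true := by decide +kernel

theorem RO_b15 : allR FO 8 3840 = true := by decide +kernel

theorem RO_b16 : allR FO 8 4096 = true := by decide +kernel

theorem RO_b17 : allR FO 8 4352 = true := by decide +kernel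

theorem RO_b18 : allR FO 8 4608 = true := by decide +kernel

theorem RO_b19 : allR FO 8 4864 = true := by decide +kernel

theorem RO_b20 : allR FO 8 5120 = true := by decide +kernel

theorem RO_b21 : allR FO 8 5376 = true := by decide +kernel

theorem RO_b22 : allR FO 8 5632 = true := by decide +kernel

theorem RO_b23 : allR FO 8 5888 = true := by decide +kernel

theorem RO_b24 : allR FO 8 6144 = true := by decide +kernel

theorem RO_b25 : allR FO 8 6400 = true := by decide +kernel

theorem RO_b26 : allR FO 8 6656 = true := by decide +kernel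

theorem RO_b27 : allR FO 8 6912 = true := by decide +kernel

theorem RO_all : ∀ j, j < 7168 → FO j = true := by
  refine allR_blocks FO 8 28 (fun b hb => ?_)
  interval_cases b
  · exact RO_b0
  · exact RO_b1
  · exact RO_b2
  · exact RO_b3
  · exact RO_b4
  · exact RO_b5
  · exact RO_b6
  · exact RO_b7
  · exact RO_b8
  · exact RO_b9
  · exact RO_b10
  · exact RO_b11
  · exact RO_b12
  · exact RO_b13
  · exact RO_b14
  · exact RO_b15
  · exact RO_b16
  · exact RO_b17
  · exact RO_b18
  · exact RO_b19
  · exact RO_b20
  · exact RO_b21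
  · exact RO_b22
  · exact RO_b23
  · exact RO_b24
  · exact RO_b25
  · exact RO_b26
  · exact RO_b27

end Cfsg.Agent.TcData.Ly.Mc
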