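import Mathlib
import Cfsg.Agent.Lib.LyDce.McDefs
import Cfsg.Agent.TcData.Ly.Mc.Om
import Cfsg.Agent.TcData.Ly.Mc.Pt
import Cfsg.Agent.TcData.Ly.Mc.DT
import Cfsg.Agent.TcData.Ly.Mc.Comm
import Cfsg.Agent.Lib.McLFusData

set_option autoImplicit false
set_option Elab.async false
set_option maxRecDepth 100000
set_option linter.all false
set_option maxHeartbeats 0

namespace Cfsg.Agent.TcData.Ly.Mc

open Cfsg.Agent.Lib.TcFacts Cfsg.Agent.Lib.LyDce Cfsg.Agent.Lib.VecOrb Cfsg.Agent.TcData.Ly.Syl.McN Cfsg.Agent.Lib.McLFusData

/-- The masks are distinct. -/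
noncomputable def FS : ℕ → Bool := rowS (Tr.get MT) 275
theorem RS_b0 : allR FS 4 0 = true := by decide +kernel

theorem RS_b1 : allR FS 4 16 = true := by decide +kernel

theorem RS_b2 : allR FS 4 32 = true := by decide +kernel

theorem RS_b3 : allR FS 4 48 = true := by decide +kernel

theorem RS_b4 : allR FS 4 64 = true := by decide +kernel

theorem RS_b5 : allR FS 4 80 = true := by decide +kernel

theorem RS_b6 : allR FS 4 96 = true := by decide +kernel

theorem RS_b7 : allR FS 4 112 = true := by decide +kernel

theorem RS_b8 : allR FS 4 128 = true := by decide +kernel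

theorem RS_b9 : allR FS 4 144 = true := by decide +kernel

theorem RS_b10 : allR FS 4 160 = true := by decide +kernel

theorem RS_b11 : allR FS 4 176 = true := by decide +kernel

theorem RS_b12 : allR FS 4 192 = true := by decide +kernel

theorem RS_b13 : allR FS 4 208 = true := by decide +kernel

theorem RS_b14 : allR FS 4 224 = true := by decide +kernel

theorem RS_b15 : allR FS 4 240 = true := by decide +kernel

theorem RS_b16 : allR FS 4 256 = true := by decide +kernel

theorem RS_b17 : allR FS 4 272 = true := by decide +kernel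

theorem RS_all : ∀ j, j < 288 → FS j = true := by
  refine allR_blocks FS 4 18 (fun b hb => ?_)
  interval_cases b
  · exact RS_b0
  · exact RS_b1
  · exact RS_b2
  · exact RS_b3
  · exact RS_b4
  · exact RS_b5
  · exact RS_b6
  · exact RS_b7
  · exact RS_b8
  · exact RS_b9
  · exact RS_b10
  · exact RS_b11
  · exact RS_b12
  · exact RS_b13
  · exact RS_b14
  · exact RS_b15
  · exact RS_b16
  · exact RS_b17

end Cfsg.Agent.TcData.Ly.Mc
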